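import Cfsg.Agent.H35.ExcIdx

/-!
# Blocks of the elements of a Chevalley group (helper422)

`Pr e f g` : the matrix `g` maps the coordinate subspace of `f` to the one of `e`; `blk e f g` its matrix.

* `n_line` : a representative of `w` maps the line of the root vector of `z` to the one of `w z`;
* `t_line` : the torus preserves the lines of the root vectors;
* `x_one`, `x_zero` : the columns of a root element.
-/

set_option autoImplicit false
set_option linter.unusedSectionVars false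

namespace Cfsg.Agent.H422.RatB

open CoxeterSystem Cfsg.Agent.ChevalleyStructure.CoxeterGeom Cfsg.Agent.Tits.Roots Cfsg.Agent.Tits.Core
  Cfsg.Agent.Tits.RootComb Cfsg.Agent.Nodes.Reps Cfsg.Agent.Nodes.BNOf Cfsg.Agent.Nodes.Bruhat
  Cfsg.Agent.Nodes.LeviDec Cfsg.Agent.Nodes.RGDChev Cfsg.Agent.H35.ExcIdx
open Cfsg.Lie Cfsg.Agent.ChevalleyStructure Cfsg.Agent.ChevalleyStructure.Elts
  Cfsg.Agent.ChevalleyStructure.RootVecTab Cfsg.Agent.ChevalleyStructure.XColumns
open scoped Matrix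

universe u

section Blk

variable {ι κ : Type*} [Fintype ι] [DecidableEq ι] [Fintype κ] [DecidableEq κ] {K : Type u} [Field K]

/-- the block of `g` -/
def blk (e f : κ → ι) (g : Matrix ι ι K) : Matrix κ κ K := g.submatrix e f

/-- `g` maps the coordinate subspace of `f` to the one of `e` -/
def Pr (e f : κ → ι) (g : Matrix ι ι K) : Prop := ∀ b r, (∀ a, r ≠ e a) → g r (f b) = 0

theorem blk_mul {e e' f : κ → ι} (he : Function.Injective e') {g h : Matrix ι ι K} (hg : Pr e' f g) :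
    blk e f (h * g) = blk e e' h * blk e' f g := by
  ext a b
  show (h * g) (e a) (f b) = _
  rw [Matrix.mul_apply, Matrix.mul_apply]
  symm
  refine Fintype.sum_of_injective e' he _ _ ?_ fun c => rfl
  intro i hi
  rw [hg b i (fun a e => hi ⟨a, e.symm⟩), mul_zero]

theorem Pr.mul {e e' f : κ → ι} {g h : Matrix ι ι K} (hh : Pr e e' h) (hg : Pr e' f g) : Pr e f (h * g) := by
  intro b r hr
  rw [Matrix.mul_apply]
  refine Finset.sum_eq_zero fun c _ => ?_
  by_cases hc : ∃ a, c = e' a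
  · obtain ⟨a, rfl⟩ := hc
    rw [hh a r hr, zero_mul]
  · push Not at hc
    rw [hg b c hc, mul_zero]

theorem Pr.one (e : κ → ι) : Pr e e (1 : Matrix ι ι K) := by
  intro b r hr
  exact Matrix.one_apply_ne (hr b)

theorem blk_one {e : κ → ι} (he : Function.Injective e) : blk e e (1 : Matrix ι ι K) = 1 :=
  Matrix.submatrix_one e he

end Blk

section Chev

variable {D : ChevalleyDatum} {l : ℕ} {M : CoxeterMatrix (Fin l)} (hp : IsType D l M) {K : Type u} [Field K]

/-- the matrix of an element of the group -/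
def mt (g : ↥(D.group K)) : Matrix D.Idx D.Idx K := ((g : GL D.Idx K) : Matrix D.Idx D.Idx K)

theorem mt_mul (g h : ↥(D.group K)) : mt (g * h) = mt g * mt h := rfl

theorem mt_one : mt (1 : ↥(D.group K)) = 1 := rfl

theorem mt_inj {g h : ↥(D.group K)} (e : mt g = mt h) : g = h := Subtype.ext (Units.ext e)

include hp in
theorem row_nodup (r : ℕ) : ((XColumns.row D r).map Prod.fst).Nodup :=
  (RootVec.row_pairwise hp.checked r).imp fun h => ne_of_lt h

/-- `g` maps the line of `e_s` to the line of `e_{s'}` -/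
def Line (g : ↥(D.group K)) (s s' : ℕ) : Prop := ∃ c : K, c ≠ 0 ∧ mt g *ᵥ ev D K s = c • ev D K s'

theorem Line.mul {g h : ↥(D.group K)} {s s' s'' : ℕ} (hg : Line g s' s'') (hh : Line h s s') :
    Line (g * h) s s'' := by
  obtain ⟨c, hc, e⟩ := hg
  obtain ⟨d, hd, e'⟩ := hh
  refine ⟨d * c, mul_ne_zero hd hc, ?_⟩
  rw [mt_mul, ← Matrix.mulVec_mulVec, e', Matrix.mulVec_smul, e, smul_smul]

theorem line_one (s : ℕ) : Line (1 : ↥(D.group K)) s s :=
  ⟨1, one_ne_zero, by rw [mt_one, Matrix.one_mulVec, one_smul]⟩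

theorem Line.inv {g : ↥(D.group K)} {s s' : ℕ} (hg : Line g s s') : Line g⁻¹ s' s := by
  obtain ⟨c, hc, e⟩ := hg
  refine ⟨c⁻¹, inv_ne_zero hc, ?_⟩
  have h1 : mt g⁻¹ *ᵥ (mt g *ᵥ ev D K s) = ev D K s := by
    rw [Matrix.mulVec_mulVec, ← mt_mul, inv_mul_cancel, mt_one, Matrix.one_mulVec]
  rw [e, Matrix.mulVec_smul] at h1
  rw [← h1, smul_smul, inv_mul_cancel₀ hc, one_smul]

/-- the stabilizer of the line of `e_s` -/
def lineStab (D : ChevalleyDatum) (K : Type u) [Field K] (s : ℕ) : Subgroup ↥(D.group K) where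
  carrier := {g | Line g s s}
  mul_mem' := fun ha hb => ha.mul hb
  one_mem' := line_one s
  inv_mem' := fun h => h.inv

theorem mem_lineStab {s : ℕ} {g : ↥(D.group K)} : g ∈ lineStab D K s ↔ Line g s s := Iff.rfl

include hp in
theorem t_diag {t : ↥(D.group K)} (ht : t ∈ TT D K) :
    ∃ χ : Fin D.nroots → K, mt t = Matrix.diagonal (Sum.elim (fun _ => (1 : K)) χ) :=
  HMatDiagAll.mem_torus.1 (HMatDiagAll.diagonalSubgroup_le_torus hp.inList (Subgroup.mem_subgroupOf.1 ht))

include hp in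
theorem t_line {t : ↥(D.group K)} (ht : t ∈ TT D K) {s : ℕ} (hs : s < D.nroots) : Line t s s := by
  obtain ⟨χ, e⟩ := t_diag hp ht
  have h0 : χ ⟨s, hs⟩ ≠ 0 := by
    intro h0
    have h1 : mt t⁻¹ * mt t = 1 := by rw [← mt_mul, inv_mul_cancel, mt_one]
    have h2 := congrFun (congrFun h1 (Sum.inr ⟨s, hs⟩)) (Sum.inr ⟨s, hs⟩)
    rw [e, Matrix.mul_diagonal, Matrix.one_apply_eq, Sum.elim_inr, h0, mul_zero] at h2
    exact zero_ne_one h2
  refine ⟨χ ⟨s, hs⟩, h0, ?_⟩
  rw [e]
  funext a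
  rw [Matrix.mulVec_diagonal, Pi.smul_apply, smul_eq_mul]
  rcases a with j | v
  · simp
  · rw [Sum.elim_inr, ev_inr]
    split_ifs with h1
    · have h2 : v = ⟨s, hs⟩ := Fin.ext h1
      rw [h2]
    · rw [mul_zero, mul_zero]

theorem Pr_t {κ : Type*} [Fintype κ] (e : κ → D.Idx) {t : ↥(D.group K)} (hp : IsType D l M) (ht : t ∈ TT D K) :
    Pr e e (mt t) := by
  obtain ⟨χ, h1⟩ := t_diag hp ht
  rw [h1]
  intro b r hr
  exact Matrix.diagonal_apply_ne _ (hr b)

variable {W : Type*} [Group W] (cs : CoxeterSystem M W)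

include hp in
/-- representatives of the elements of the Weyl group permute the lines of the root vectors -/
theorem n_line {hN : NSys M (TT D K) (fun i => (⟨nn hp K i, nn_mem_group hp i⟩ : ↥(D.group K)))} {w : W}
    {k : ↥(D.group K)} (hk : Rp cs hN w k) {s : ℕ} (hs : s < D.nroots) :
    ∃ s' < D.nroots, vec D l s' = rep cs hp.isCartan w (vec D l s) ∧ Line k s s' := by
  have key : ∀ ω : List (Fin l), ∃ k, Rp cs hN (cs.wordProd ω) k ∧ ∀ s < D.nroots,
      ∃ s' < D.nroots, vec D l s' = rep cs hp.isCartan (cs.wordProd ω) (vec D l s) ∧ Line k s s' := by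
    intro ω
    induction ω with
    | nil =>
      refine ⟨1, by rw [wordProd_nil]; exact rp_one, fun s hs => ⟨s, hs, ?_, line_one s⟩⟩
      rw [wordProd_nil, map_one]
      rfl
    | cons i ω ih =>
      obtain ⟨k, hk, ih⟩ := ih
      refine ⟨(⟨nn hp K i, nn_mem_group hp i⟩ : ↥(D.group K)) * k, ?_, fun s hs => ?_⟩
      · rw [wordProd_cons]; exact (rp_simple cs hN i).mul hk
      · obtain ⟨s', hs', e, hl⟩ := ih s hs
        have hF := NSimpleAll.facts hp.inList (lt_rank hp i)
        refine ⟨D.reflectRoot i s', hF.reflect_lt s' hs', ?_, ?_⟩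
        · rw [wordProd_cons, rep_mul_apply, ← e, rep_vec hp cs i hs']
        · refine Line.mul ?_ hl
          refine ⟨((NSimple.eta D i s' : ℤ) : K), ?_, ?_⟩
          · rcases hF.eta_one s' hs' with h1 | h1 <;> rw [h1] <;> simp
          · exact ConjSimple.n_ev hF hs'
  obtain ⟨ω, rfl⟩ := cs.wordProd_surjective w
  obtain ⟨k', hk', h1⟩ := key ω
  obtain ⟨s', hs', e, hl⟩ := h1 s hs
  refine ⟨s', hs', e, ?_⟩
  have h2 : k = k' * (k'⁻¹ * k) := by group
  rw [h2]
  exact hl.mul (t_line hp (hk'.unique hk) hs)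

include hp in
theorem x_zero {r s : ℕ} (hr : r < D.nroots) (hs : s < D.nroots) (hsr : s ≠ r) (hsn : s ≠ D.neg r)
    (h : D.chainEntry r s = []) (t : K) : D.x K r t *ᵥ ev D K s = ev D K s := by
  rw [x_mulVec_ev hr hs hsr hsn (row_nodup hp r), h]
  simp

include hp in
theorem x_one {r s s' : ℕ} {m : ℤ} (hr : r < D.nroots) (hs : s < D.nroots) (hsr : s ≠ r) (hsn : s ≠ D.neg r)
    (h : D.chainEntry r s = [(s', m)]) (t : K) :
    D.x K r t *ᵥ ev D K s = ev D K s + ((m : K) * t) • ev D K s' := by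
  rw [x_mulVec_ev hr hs hsr hsn (row_nodup hp r), h]
  simp

end Chev

end Cfsg.Agent.H422.RatB
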