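import Cfsg.Agent.H422.RatB.E8Root
import Cfsg.Agent.H422.RatB.E7
import Cfsg.Agent.H422.RatB.Gen2
import Cfsg.Agent.H116.RatB0.TabE8

/-!
# `E8(q)`, `q` of order `7` modulo `p` : the count for the action on `G / P_{D7}` (helper422)
-/

set_option autoImplicit false
set_option linter.unusedSectionVars false
set_option maxRecDepth 100000

namespace Cfsg.Agent.H422.RatB

open CoxeterSystem Cfsg.Agent.ChevalleyStructure.CoxeterGeom Cfsg.Agent.Tits.Roots Cfsg.Agent.Tits.Core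
  Cfsg.Agent.Tits.RootComb Cfsg.Agent.Tits.Exchange Cfsg.Agent.Nodes.Reps Cfsg.Agent.Nodes.BNOf
  Cfsg.Agent.Nodes.StabComb Cfsg.Agent.Nodes.Bruhat Cfsg.Agent.Nodes.LeviDec Cfsg.Agent.Nodes.Coroot
  Cfsg.Agent.KFacts.RgdPar Cfsg.Agent.KFacts.RgdSL Cfsg.Agent.KFacts.RgdTI
  Cfsg.Agent.H35.Poin Cfsg.Agent.H35.PoinNum Cfsg.Agent.H116.RatB0
  Cfsg.Agent.H35.ExcIdx Cfsg.Agent.ChevalleyStructure.CoxeterGeomTypes Cfsg.Lie
open Cfsg.Agent.Nodes.RGDChev Cfsg.Agent.ChevalleyStructure.NPerm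

/-! ### numbers -/

section num

variable {q p : ℕ} [hp : Fact p.Prime] (hq : 1 ≤ q) (hd : orderOf (q : ZMod p) = 7)

include hq hd in
theorem dvd_sub_iff_seven (d : ℕ) : p ∣ q ^ d - 1 ↔ 7 ∣ d := by
  rw [← ZMod.natCast_eq_zero_iff, cast_pow_sub hq, sub_eq_zero, ← hd, orderOf_dvd_iff_pow_eq_one]

include hd in
theorem seven_dvd : 7 ∣ p - 1 := by
  have h0 : (q : ZMod p) ≠ 0 := by
    intro h0
    rw [h0] at hd
    have h1 : (0 : ZMod p) ^ 7 = 1 := by rw [← hd, pow_orderOf_eq_one]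
    rw [zero_pow (by norm_num)] at h1
    exact zero_ne_one h1
  rw [← hd]
  exact orderOf_dvd_of_pow_eq_one (ZMod.pow_card_sub_one_eq_one h0)

include hd in
theorem le_of_seven : 25 ≤ p := by
  have h1 := seven_dvd hd
  by_contra h2
  push Not at h2
  have h3 := hp.out
  have h4 := h3.two_le
  obtain ⟨k, hk⟩ := h1
  have h5 : p = 7 * k + 1 := by omega
  have h6 : k ≤ 3 := by omega
  interval_cases k
  · rw [h5] at h3; exact absurd h3 (by norm_num)
  · rw [h5] at h3; exact absurd h3 (by norm_num)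
  · rw [h5] at h3; exact absurd h3 (by norm_num)
  · rw [h5] at h3; exact absurd h3 (by norm_num)

include hq hd in
/-- the index of `P_{A6}` -/
theorem not_dvd_idx_seven (hq2 : 2 ≤ q) {idx : ℕ}
    (h : idx * pr q [1, 1, 2, 3, 4, 5, 6, 7] = pr q [2, 8, 12, 14, 18, 20, 24, 30]) : ¬ p ∣ idx := by
  have h7 : q ^ 14 - 1 = (q ^ 7 - 1) * (q ^ 7 + 1) := by
    have h1 : 1 ≤ q ^ 7 := Nat.one_le_pow _ _ hq
    have h3 : 1 ≤ q ^ 14 := Nat.one_le_pow _ _ hq
    zify [h1, h3]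
    ring
  have pos : 0 < q ^ 7 - 1 := by
    have h1 : q ^ 1 ≤ q ^ 7 := Nat.pow_le_pow_right (by omega) (by norm_num)
    rw [pow_one] at h1
    omega
  simp only [pr_cons, pr_nil, h7] at h
  have h3 : idx * ((q ^ 1 - 1) * (q ^ 1 - 1) * (q ^ 2 - 1) * (q ^ 3 - 1) * (q ^ 4 - 1) * (q ^ 5 - 1) * (q ^ 6 - 1)) =
      (q ^ 7 + 1) * ((q ^ 2 - 1) * (q ^ 8 - 1) * (q ^ 12 - 1) * (q ^ 18 - 1) * (q ^ 20 - 1) * (q ^ 24 - 1) *
        (q ^ 30 - 1)) := by
    refine Nat.eq_of_mul_eq_mul_right pos ?_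
    calc _ = idx * ((q ^ 1 - 1) * ((q ^ 1 - 1) * ((q ^ 2 - 1) * ((q ^ 3 - 1) * ((q ^ 4 - 1) * ((q ^ 5 - 1) *
            ((q ^ 6 - 1) * ((q ^ 7 - 1) * 1)))))))) := by ring
      _ = _ := by rw [h]; ring
  intro h4
  have h5 : p ∣ (q ^ 7 + 1) * ((q ^ 2 - 1) * (q ^ 8 - 1) * (q ^ 12 - 1) * (q ^ 18 - 1) * (q ^ 20 - 1) * (q ^ 24 - 1) *
        (q ^ 30 - 1)) := by
    rw [← h3]
    exact h4.mul_right _
  have e : (q : ZMod p) ^ 7 = 1 := by rw [← hd, pow_orderOf_eq_one]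
  have t : (2 : ZMod p) ≠ 0 := two_ne (by have := le_of_seven hd; omega)
  have nd : ∀ d, ¬ 7 ∣ d → ¬ p ∣ q ^ d - 1 := fun d h6 h7 => h6 ((dvd_sub_iff_seven hq hd d).1 h7)
  rw [hp.out.dvd_mul, hp.out.dvd_mul, hp.out.dvd_mul, hp.out.dvd_mul, hp.out.dvd_mul, hp.out.dvd_mul,
    hp.out.dvd_mul] at h5
  rcases h5 with h5 | (((((h5 | h5) | h5) | h5) | h5) | h5) | h5
  · rw [← ZMod.natCast_eq_zero_iff] at h5
    push_cast at h5
    apply t
    linear_combination h5 - e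
  · exact nd 2 (by norm_num) h5
  · exact nd 8 (by norm_num) h5
  · exact nd 12 (by norm_num) h5
  · exact nd 18 (by norm_num) h5
  · exact nd 20 (by norm_num) h5
  · exact nd 24 (by norm_num) h5
  · exact nd 30 (by norm_num) h5

end num

/-- half the sum of the positive roots, doubled -/
def rho8 : Fin 8 → ℤ := ![92, 136, 182, 270, 220, 168, 114, 58]

theorem rho8_pos (i : Fin 8) : 0 < pairing (cartanOf chevE8 8) i rho8 := by
  revert i
  decide +kernel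

theorem E8_J : ({j | j ∈ ([2, 3, 4, 5, 6, 7] : List (Fin 8))} : Set (Fin 8)) = J8 := by
  ext j
  show j ∈ [2, 3, 4, 5, 6, 7] ↔ (j ≠ 0 ∧ j ≠ 1)
  revert j
  decide

theorem card_J8 : Nat.card {i // i ∉ J8} = 2 := by
  have e : {i : Fin 8 // i ∉ J8} ≃ Fin 2 :=
    { toFun := fun i => if i.1 = 0 then 0 else 1
      invFun := fun i => if i = 0 then ⟨0, fun h => h.1 rfl⟩ else ⟨1, fun h => h.2 rfl⟩
      left_inv := by
        rintro ⟨i, hi⟩
        by_cases h0 : i = 0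
        · subst h0; simp
        · have h1 : i = 1 := by
            by_contra h1
            exact hi ⟨h0, h1⟩
          subst h1
          simp
      right_inv := by
        intro i
        fin_cases i <;> simp }
  rw [Nat.card_congr e, Nat.card_eq_fintype_card, Fintype.card_fin]

universe u

/-- the statement of `no_dual` -/
def NoDual (K : Type u) [Field K] [Fintype K] (p d : ℕ) : Prop :=
  ∀ A C B : Matrix (Fin d) (Fin d) K, A ^ p = 1 → A ≠ 1 → A * C = 1 → IsUnit B → B * A = C.transpose * B → False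

variable (K : Type u) [Field K] [Fintype K]

/-- **the count**, from `NoDual` -/
theorem cnt_E8_of {p : ℕ} [hp' : Fact p.Prime] (hd : orderOf ((Fintype.card K : ℕ) : ZMod p) = 7)
    (hno : NoDual K p 7) :
    ∃ P : Sylow p (chevE8.group K), ¬ H145.BR.cnt (P : Subgroup (chevE8.group K)) (chevE8.group K ⧸
      PJ CoxeterMatrix.E₈.toCoxeterSystem hpE8.isCartan (TT chevE8 K) (XX chevE8 8 K) {j | j ≠ 0}) ≡ 1 [MOD p] := by
  obtain ⟨r, f, _, hr, hf, hK⟩ := exists_pow K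
  have : Fact r.Prime := ⟨hr⟩
  rw [hK] at hd
  set q := r ^ f with hqdef
  have hq2 : 2 ≤ q := two_le hr hf
  have hq : 1 ≤ q := by omega
  set cs := CoxeterMatrix.E₈.toCoxeterSystem
  have hfin := finite_W hpE8 cs
  have hR := rgd (K := K) hpE8 cs r
  have hc : ∀ i, Nat.card (XX chevE8 8 K (sr i)) = q := fun i => by
    rw [card_XX hpE8 K cs (isRoot_sr _ _ i), Nat.card_eq_fintype_card, hK]
  have hG := GG_eq_top hpE8 K cs
  have nd : ∀ d, ¬ 7 ∣ d → ¬ p ∣ q ^ d - 1 := fun d h6 h7 => h6 ((dvd_sub_iff_seven hq hd d).1 h7)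
  have hp25 := le_of_seven hd
  have hpr : p ≠ r := by
    rintro rfl
    have h3 : (q : ZMod p) = 0 := by
      rw [hqdef]
      push_cast
      rw [ZMod.natCast_self, zero_pow hf]
    have h4 : (q : ZMod p) ^ 7 = 1 := by rw [← hd, pow_orderOf_eq_one]
    rw [h3, zero_pow (by norm_num)] at h4
    exact zero_ne_one h4
  have hnd1 : ¬ p ∣ (q - 1) ^ 8 := by
    intro h3
    have h4 := nd 1 (by norm_num)
    rw [pow_one] at h4
    exact h4 (hp'.out.dvd_of_dvd_pow h3)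
  -- the torus
  have hTc : 1 * Nat.card (chevE8.diagonalSubgroup K) = (q - 1) ^ 8 := by
    rw [← hK]
    exact Cfsg.Agent.S1035.result rfl (chevE8, 1) (by simp)
  have hT1 : Nat.card (TT chevE8 K) = Nat.card (chevE8.diagonalSubgroup K) :=
    Nat.card_congr (Subgroup.subgroupOfEquivOfLe
      (Cfsg.Agent.ChevalleyStructure.Elts.diagonal_le_group hpE8.inList K)).toEquiv
  have hpT : ¬ p ∣ Nat.card (TT chevE8 K) := by
    rw [hT1, ← one_mul (Nat.card (chevE8.diagonalSubgroup K)), hTc]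
    exact hnd1
  have hpB : ¬ p ∣ Nat.card ↥(RGD.B cs hpE8.isCartan (TT chevE8 K) (XX chevE8 8 K)) := by
    rw [card_B' hR, hp'.out.dvd_mul, not_or]
    refine ⟨fun h3 => ?_, hpT⟩
    obtain ⟨m, hm⟩ := IsPGroup.iff_card.1 hR.isPGroup_Upos
    rw [hm] at h3
    exact hpr ((Nat.prime_dvd_prime_iff_eq hp'.out hr).1 (hp'.out.dvd_of_dvd_pow h3))
  -- the parabolic subgroups without `p`
  have small : ∀ (J : List (Fin 8)) (D : List ℕ),
      ParOrd cs hpE8.isCartan (TT chevE8 K) (XX chevE8 8 K) q 8 J D → (∀ d ∈ D, ¬ 7 ∣ d) →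
      ¬ p ∣ Nat.card (PJ cs hpE8.isCartan (TT chevE8 K) (XX chevE8 8 K) {j | j ∈ J}) := by
    rintro J D ⟨N, h3, h4⟩ hD
    rw [h3, hp'.out.dvd_mul, not_or]
    refine ⟨fun h5 => not_dvd_prod (fun d hd' => nd d (hD d hd')) ?_, hpB⟩
    rw [← h4]
    exact h5.mul_right _
  have o7 : ParOrd cs hpE8.isCartan (TT chevE8 K) (XX chevE8 8 K) q 8 [7] [1, 1, 1, 1, 1, 1, 1, 2] :=
    ParOrd.path (ParOrd.nil hR) hR hq2 hc (C := [7]) (i0 := 1) (by constructor <;> decide +kernel) (by decide)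
  have o67 : ParOrd cs hpE8.isCartan (TT chevE8 K) (XX chevE8 8 K) q 8 [6, 7] [1, 1, 1, 1, 1, 1, 2, 3] :=
    ParOrd.path (ParOrd.nil hR) hR hq2 hc (C := [6, 7]) (i0 := 1) (by constructor <;> decide +kernel) (by decide)
  have o567 := oE8_567 hR hq2 hc
  have o4567 := oE8_4567 hR hq2 hc
  have n2 : ParOrd cs hpE8.isCartan (TT chevE8 K) (XX chevE8 8 K) q 8 [3, 4, 5, 6, 7] [1, 1, 1, 2, 3, 4, 5, 6] :=
    ParOrd.path (ParOrd.nil hR) hR hq2 hc (C := [3, 4, 5, 6, 7]) (i0 := 1) (by constructor <;> decide +kernel)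
      (by decide)
  have n3 : ParOrd cs hpE8.isCartan (TT chevE8 K) (XX chevE8 8 K) q 8 [2, 4, 5, 6, 7] [1, 1, 1, 2, 2, 3, 4, 5] :=
    ParOrd.path o4567 hR hq2 hc (C := [2]) (i0 := 1) (by constructor <;> decide +kernel) (by decide)
  have n4 : ParOrd cs hpE8.isCartan (TT chevE8 K) (XX chevE8 8 K) q 8 [2, 3, 5, 6, 7] [1, 1, 1, 2, 2, 3, 3, 4] :=
    ParOrd.path o567 hR hq2 hc (C := [2, 3]) (i0 := 1) (by constructor <;> decide +kernel) (by decide)
  have n5 : ParOrd cs hpE8.isCartan (TT chevE8 K) (XX chevE8 8 K) q 8 [2, 3, 4, 6, 7] [1, 1, 1, 2, 2, 3, 3, 4] :=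
    ParOrd.path o67 hR hq2 hc (C := [2, 3, 4]) (i0 := 1) (by constructor <;> decide +kernel) (by decide)
  have n6 : ParOrd cs hpE8.isCartan (TT chevE8 K) (XX chevE8 8 K) q 8 [2, 3, 4, 5, 7] [1, 1, 1, 2, 2, 3, 4, 5] :=
    ParOrd.path o7 hR hq2 hc (C := [2, 3, 4, 5]) (i0 := 1) (by constructor <;> decide +kernel) (by decide)
  have n7 : ParOrd cs hpE8.isCartan (TT chevE8 K) (XX chevE8 8 K) q 8 [2, 3, 4, 5, 6] [1, 1, 1, 2, 3, 4, 5, 6] :=
    ParOrd.path (ParOrd.nil hR) hR hq2 hc (C := [2, 3, 4, 5, 6]) (i0 := 1) (by constructor <;> decide +kernel)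
      (by decide)
  have hKJ : ∀ K' : Set (Fin 8), K' ⊆ J8 → K' ≠ J8 →
      ¬ p ∣ Nat.card (PJ cs hpE8.isCartan (TT chevE8 K) (XX chevE8 8 K) K') := by
    intro K' h3 h4
    have h5 : ∃ i ∈ J8, i ∉ K' := by
      by_contra hcon
      push Not at hcon
      exact h4 (Set.Subset.antisymm h3 hcon)
    obtain ⟨i, hi, hi'⟩ := h5
    have key : ∀ (J : List (Fin 8)) (D : List ℕ), (∀ j : Fin 8, j ≠ 0 → j ≠ 1 → j ≠ i → j ∈ J) →
        ParOrd cs hpE8.isCartan (TT chevE8 K) (XX chevE8 8 K) q 8 J D → (∀ d ∈ D, ¬ 7 ∣ d) →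
        ¬ p ∣ Nat.card (PJ cs hpE8.isCartan (TT chevE8 K) (XX chevE8 8 K) K') := by
      intro J D h5 h6 hD h7
      have h8 : K' ⊆ {j | j ∈ J} := fun j hj => h5 j (h3 hj).1 (h3 hj).2 (fun e => hi' (e ▸ hj))
      exact small J D h6 hD (h7.trans (Subgroup.card_dvd_of_le
        (sup_le ((LJ_mono h8).trans LJ_le_PJ) ((VJ_le_B K').trans B_le_PJ))))
    fin_cases i
    · exact absurd rfl hi.1
    · exact absurd rfl hi.2
    · exact key _ _ (by decide) n2 (by decide)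
    · exact key _ _ (by decide) n3 (by decide)
    · exact key _ _ (by decide) n4 (by decide)
    · exact key _ _ (by decide) n5 (by decide)
    · exact key _ _ (by decide) n6 (by decide)
    · exact key _ _ (by decide) n7 (by decide)
  have n0 : ParOrd cs hpE8.isCartan (TT chevE8 K) (XX chevE8 8 K) q 8 [2, 3, 4, 5, 6, 7] [1, 1, 2, 3, 4, 5, 6, 7] :=
    ParOrd.path (ParOrd.nil hR) hR hq2 hc (C := [2, 3, 4, 5, 6, 7]) (i0 := 1) (by constructor <;> decide +kernel)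
      (by decide)
  have hdvd : p ∣ Nat.card (PJ cs hpE8.isCartan (TT chevE8 K) (XX chevE8 8 K) J8) := by
    obtain ⟨N, h3, h4⟩ := n0
    rw [← E8_J, h3]
    refine Dvd.dvd.mul_right ?_ _
    have h5 : p ∣ N * (q - 1) ^ 8 := by
      rw [h4]
      have h6 : p ∣ q ^ 7 - 1 := (dvd_sub_iff_seven hq hd 7).2 dvd_rfl
      simp only [pr_cons]
      exact h6.mul_right _ |>.mul_left _ |>.mul_left _ |>.mul_left _ |>.mul_left _ |>.mul_left _ |>.mul_left _
        |>.mul_left _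
    exact (hp'.out.dvd_mul.1 h5).resolve_right hnd1
  have hidx : ¬ p ∣ (PJ cs hpE8.isCartan (TT chevE8 K) (XX chevE8 8 K) J8).index := by
    rw [← E8_J]
    refine not_dvd_idx_seven hq hd hq2 (idx_of_parOrd hpE8 K hr hf hK cs (one_dvd _) (by rw [hTc]; rfl)
      (dS := [2, 8, 12, 14, 18, 20, 24, 30]) (by decide) ⟨f * 120, ?_⟩ n0)
    have h3 := Cfsg.Agent.S1065.result hK
    rw [one_mul, pow_mul]
    simp only [pr_cons, pr_nil]
    rw [h3]
    ring
  obtain ⟨P, x, hP, hxP, hx0, hxp⟩ := exists_sylow_le hR hpr hpT (J0 := J8) (D := J8) subset_rfl hidx hdvd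
  refine ⟨P, ?_⟩
  obtain ⟨w0, hw0⟩ := exists_neg_one cs
  obtain ⟨n0', hn0'⟩ := exists_rp cs hR.nsys w0
  have hPL : (P : Subgroup (chevE8.group K)) ≤ LJ cs hpE8.isCartan (TT chevE8 K) (XX chevE8 8 K) J8 :=
    hP.trans le_sup_right
  refine cnt_ne_of_noconj hR hG (v := rho8) rho8_pos (J0 := J8) (fun j hj => hj.1) hKJ (fun w hw h => st8 cs hw h) P
    hPL hxP hxp (N := 2) (fun z hz => bound8 cs hz) ?_ hn0' hw0 ?_
  · rw [card_J8]
    omega
  · intro l hl e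
    obtain ⟨B, C, hC, hB, hBC⟩ := conj_eq cs hn0' hw0 hx0 hl e
    have hne := blk_ne_one (r := r) cs K (hKJ K8 K8_sub K8_ne) (hPL hxP) hxp
    refine hno _ C B ?_ hne hC hB hBC
    -- the power
    have h1 : ∀ k : ℕ, Pr us us (mt (x ^ k)) ∧ blk us us (mt (x ^ k)) = blk us us (mt x) ^ k := by
      intro k
      induction k with
      | zero => exact ⟨by rw [pow_zero, mt_one]; exact Pr.one _, by rw [pow_zero, pow_zero, mt_one, blk_one us_inj]⟩
      | succ k ih =>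
        have h2 := (LJ_le_prStab cs (hPL hxP)).1
        refine ⟨?_, ?_⟩
        · rw [pow_succ, mt_mul]; exact ih.1.mul h2
        · rw [pow_succ, mt_mul, blk_mul us_inj h2, ih.2, pow_succ]
    have h2 := (h1 p).2
    rw [← h2, ← hxp, pow_orderOf_eq_one, mt_one, blk_one us_inj]

end Cfsg.Agent.H422.RatB
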