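import Cfsg.Agent.H422.RatB.E8Nat
import Cfsg.Agent.Nodes.StabComb

/-!
# `E8` : the elements of order `p` of the Levi subgroup of type `A6` (helper422)

* `NatP` : the natural module and the dual module; `natP_of_mem`;
* `blk_ne_one` : an element of order `p` acts nontrivially on the natural module;
* `conj_eq` : the equation of a conjugation of `x` to `n₀⁻¹ x n₀`, `w₀ = -1`.
-/

set_option autoImplicit false
set_option linter.unusedSectionVars false
set_option maxRecDepth 100000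

namespace Cfsg.Agent.H422.RatB

open CoxeterSystem Cfsg.Agent.ChevalleyStructure.CoxeterGeom Cfsg.Agent.Tits.Roots Cfsg.Agent.Tits.Core
  Cfsg.Agent.Tits.RootComb Cfsg.Agent.Tits.Exchange Cfsg.Agent.Nodes.Reps Cfsg.Agent.Nodes.BNOf Cfsg.Agent.Nodes.Bruhat
  Cfsg.Agent.Nodes.StabComb
  Cfsg.Agent.Nodes.LeviDec Cfsg.Agent.Nodes.RGDChev Cfsg.Agent.H35.ExcIdx
  Cfsg.Agent.ChevalleyStructure.CoxeterGeomTypes
open Cfsg.Lie Cfsg.Agent.ChevalleyStructure Cfsg.Agent.ChevalleyStructure.Elts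
  Cfsg.Agent.ChevalleyStructure.RootVecTab Cfsg.Agent.ChevalleyStructure.XColumns
open scoped Matrix

universe u

/-- the nodes of type `A6` -/
def J8 : Set (Fin 8) := {j | j ≠ 0 ∧ j ≠ 1}

/-- the nodes of type `A5` -/
def K8 : Set (Fin 8) := {j | j ≠ 0 ∧ j ≠ 1 ∧ j ≠ 7}

theorem K8_sub : K8 ⊆ J8 := fun _ h => ⟨h.1, h.2.1⟩

theorem K8_ne : K8 ≠ J8 := by
  intro h
  have h1 : (7 : Fin 8) ∈ J8 := ⟨by decide, by decide⟩
  rw [← h] at h1
  exact h1.2.2 rfl

variable {W : Type*} [Group W] (cs : CoxeterSystem CoxeterMatrix.E₈ W)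

theorem exists_tz {z : Fin 8 → ℤ} (hz : z ∈ RootsJ cs hpE8.isCartan J8) : ∃ e ∈ tz, vec chevE8 8 e.1 = z := by
  obtain ⟨h1, h2⟩ := hz
  obtain ⟨r, hr, rfl⟩ := (isRoot_iff hpE8 cs z).1 h1
  have h3 := List.all_eq_true.1 tz_all r (List.mem_range.2 (by rw [nroots8] at hr; exact hr))
  have e0 : RootVec.rt chevE8 r 0 = 0 := h2 0 (fun h => h.1 rfl)
  have e1 : RootVec.rt chevE8 r 1 = 0 := h2 1 (fun h => h.2 rfl)
  simp only [Bool.or_eq_true, decide_eq_true_eq] at h3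
  rcases h3 with (h3 | h3) | h3
  · exact absurd e0 h3
  · exact absurd e1 h3
  · obtain ⟨e, he, h4⟩ := List.mem_map.1 h3
    exact ⟨e, he, by rw [h4]⟩

section

variable {K : Type u} [Field K]

theorem exists_xG {z : Fin 8 → ℤ} (hz : z ∈ RootsJ cs hpE8.isCartan J8) {g : ↥(chevE8.group K)}
    (hg : g ∈ XX chevE8 8 K z) : ∃ e ∈ tz, vec chevE8 8 e.1 = z ∧ ∃ t : K, mt g = chevE8.x K e.1 t := by
  obtain ⟨e, he, h1⟩ := exists_tz cs hz
  refine ⟨e, he, h1, ?_⟩
  have hr : e.1 < chevE8.nroots := by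
    have := (tz_fact he).1
    rw [nroots8]
    omega
  have h2 : (g : GL chevE8.Idx K) ∈ chevE8.rootSubgroup K e.1 := by
    rw [← XV_vec hpE8 K hr, h1]
    exact Subgroup.mem_subgroupOf.1 hg
  obtain ⟨t, ht⟩ := (mem_rootSubgroup_iff hpE8.inList e.1 _).1 h2
  refine ⟨t, ?_⟩
  unfold mt
  rw [ht, coe_xG]

/-- the natural module and the dual module -/
def NatP (g : ↥(chevE8.group K)) : Prop :=
  Pr us us (mt g) ∧ Pr ns ns (mt g) ∧ (blk us us (mt g))ᵀ * blk ns ns (mt g) = 1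

theorem NatP.mul {g h : ↥(chevE8.group K)} (hg : NatP g) (hh : NatP h) : NatP (g * h) := by
  obtain ⟨g1, g2, g3⟩ := hg
  obtain ⟨h1, h2, h3⟩ := hh
  refine ⟨?_, ?_, ?_⟩
  · rw [mt_mul]; exact g1.mul h1
  · rw [mt_mul]; exact g2.mul h2
  · rw [mt_mul, blk_mul us_inj h1, blk_mul ns_inj h2, Matrix.transpose_mul]
    calc _ = (blk us us (mt h))ᵀ * ((blk us us (mt g))ᵀ * blk ns ns (mt g)) * blk ns ns (mt h) := by
          simp only [Matrix.mul_assoc]
      _ = 1 := by rw [g3, Matrix.mul_one, h3]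

theorem NatP.one : NatP (1 : ↥(chevE8.group K)) := by
  refine ⟨?_, ?_, ?_⟩
  · rw [mt_one]; exact Pr.one _
  · rw [mt_one]; exact Pr.one _
  · rw [mt_one, blk_one us_inj, blk_one ns_inj, Matrix.transpose_one, Matrix.mul_one]

theorem natP_x {e : ℕ × ℕ × ℕ} (he : e ∈ tz) {t : K} {g : ↥(chevE8.group K)} (hg : mt g = chevE8.x K e.1 t) :
    NatP g := by
  have hne := (tz_fact he).2.2.2.1
  refine ⟨?_, ?_, ?_⟩
  · rw [hg]
    exact Pr_of_cols (i := ui) (fun a => ui_lt a.2) (fun a => rfl) (x_us he t)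
  · rw [hg]
    exact Pr_of_cols (i := ni) (fun a => ni_lt a) (fun a => rfl) (x_ns he t)
  · have e1 := blk_of_cols (e := us) (i := ui) (fun a => ui_lt a.2) (fun a => rfl) us_inj (x_us he t)
    have e2 := blk_of_cols (e := ns) (i := ni) (fun a => ni_lt a) (fun a => rfl) ns_inj (x_ns he t)
    rw [hg, e1, e2, Matrix.transpose_add,
      Matrix.transpose_one, Matrix.transpose_single, add_mul, mul_add, mul_add, Matrix.one_mul, Matrix.one_mul,
      Matrix.mul_one, Matrix.single_mul_single_of_ne _ _ _ _ (by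
        intro h1
        exact hne (Fin.mk.inj_iff.1 h1)), add_zero, add_assoc, ← Matrix.single_add, neg_add_cancel,
      Matrix.single_zero, add_zero]

theorem natP_of_mem {g : ↥(chevE8.group K)} (hg : g ∈ RGD.Sup (XX chevE8 8 K) (RootsJ cs hpE8.isCartan J8)) :
    NatP g := by
  unfold RGD.Sup at hg
  refine Subgroup.iSup_induction _ (C := NatP) hg ?_ NatP.one (fun a b => NatP.mul)
  rintro ⟨z, hz⟩ g hg
  obtain ⟨e, he, -, t, ht⟩ := exists_xG cs hz hg
  exact natP_x he ht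

/-- the stabilizer of the natural module -/
def prStab (K : Type u) [Field K] : Subgroup ↥(chevE8.group K) where
  carrier := {g | Pr us us (mt g) ∧ Pr us us (mt g⁻¹)}
  mul_mem' := by
    rintro a b ⟨h1, h2⟩ ⟨h3, h4⟩
    refine ⟨?_, ?_⟩
    · rw [mt_mul]; exact h1.mul h3
    · rw [mul_inv_rev, mt_mul]; exact h4.mul h2
  one_mem' := ⟨by rw [mt_one]; exact Pr.one _, by rw [inv_one, mt_one]; exact Pr.one _⟩
  inv_mem' := by
    rintro a ⟨h1, h2⟩
    exact ⟨h2, by rw [inv_inv]; exact h1⟩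

theorem LJ_le_prStab : LJ cs hpE8.isCartan (TT chevE8 K) (XX chevE8 8 K) J8 ≤ prStab K := by
  refine sup_le ?_ (RGD.Sup_le fun z hz => ?_)
  · intro t ht
    exact ⟨Pr_t us hpE8 ht, Pr_t us hpE8 (inv_mem ht)⟩
  · intro g hg
    obtain ⟨e, he, -, t, ht⟩ := exists_xG cs hz hg
    obtain ⟨e', he', -, t', ht'⟩ := exists_xG cs hz (inv_mem hg)
    exact ⟨(natP_x he ht).1, (natP_x he' ht').1⟩

/-- the line of the highest weight vector -/
theorem tz_neg : tz.all (fun e => decide (e.2.2 ≠ 6) ||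
    (List.range 8).any (fun i => decide (RootVec.rt chevE8 e.1 i < 0))) = true := by
  decide +kernel

theorem BJ_le_lineStab : BJ cs hpE8.isCartan (TT chevE8 K) (XX chevE8 8 K) J8 ≤ lineStab chevE8 K (ui 6) := by
  have h6 : ui 6 < chevE8.nroots := ui_lt (by norm_num)
  refine sup_le ?_ (RGD.Sup_le fun z hz => ?_)
  · intro t ht
    exact t_line hpE8 ht h6
  · intro g hg
    obtain ⟨e, he, h1, t, ht⟩ := exists_xG cs (PosJ_subset J8 hz) hg
    obtain ⟨⟨h2, h3⟩, -, -, -, h4⟩ := tz_fact he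
    have h5 : e.2.2 ≠ 6 := by
      have h7 := List.all_eq_true.1 tz_neg e he
      rw [Bool.or_eq_true, decide_eq_true_eq] at h7
      refine h7.resolve_right fun h8 => ?_
      obtain ⟨i, hi, h9⟩ := List.any_eq_true.1 h8
      rw [List.mem_range] at hi
      rw [decide_eq_true_eq] at h9
      have h10 := hz.2.1 ⟨i, hi⟩
      rw [← h1, vec_apply] at h10
      exact absurd h10 (not_le.2 h9)
    have h7 := (h4 6 (by norm_num)).1
    rw [if_neg (Ne.symm h5)] at h7
    refine ⟨1, one_ne_zero, ?_⟩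
    rw [ht, one_smul]
    refine x_zero hpE8 (by rw [nroots8]; omega) h6 (by unfold ui; omega) ?_ h7 t
    rw [neg8 (by omega)]
    unfold ui
    omega

end

/-! ### the stabilizer of the highest weight -/

/-- the fundamental weight of the node `1` -/
def om1 : Fin 8 → ℤ := ![5, 8, 10, 15, 12, 9, 6, 3]

theorem pair_om1 (i : Fin 8) : pairing (cartanOf chevE8 8) i om1 = if i = 1 then 1 else 0 := by
  revert i
  decide +kernel

theorem pair_sum (i : Fin 8) : pairing (cartanOf chevE8 8) i (vec chevE8 8 (ui 6) + 2 • om1) =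
    if i = 0 ∨ i = 1 ∨ i = 7 then 1 else 0 := by
  revert i
  decide +kernel

theorem mem_K8 [Finite W] {w : W} (hw : w ∈ WJ cs J8)
    (h : rep cs hpE8.isCartan w (vec chevE8 8 (ui 6)) = vec chevE8 8 (ui 6)) : w ∈ WJ cs K8 := by
  have h1 : rep cs hpE8.isCartan w om1 = om1 := by
    refine rep_of_mem_WJ_orth (WJ_mono cs ?_ hw)
    intro i hi
    rw [mem_orth, pair_om1, if_neg hi.2]
  have h2 : rep cs hpE8.isCartan w (vec chevE8 8 (ui 6) + 2 • om1) = vec chevE8 8 (ui 6) + 2 • om1 := by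
    rw [map_add, map_nsmul, h, h1]
  have h3 := mem_WJ_of_rep (cs := cs) (h := hpE8.isCartan) (fun i => by
    rw [pair_sum]
    split_ifs <;> norm_num) h2
  refine WJ_mono cs ?_ h3
  intro i hi
  rw [mem_orth, pair_sum] at hi
  have h4 : ¬ (i = 0 ∨ i = 1 ∨ i = 7) := by
    intro h5
    rw [if_pos h5] at hi
    exact absurd hi one_ne_zero
  push Not at h4
  exact h4

section

variable (K : Type u) [Field K] [Finite K]

theorem blk_ne_one [Finite W] {r : ℕ} [Fact r.Prime] [CharP K r] {p : ℕ}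
    (hK : ¬ p ∣ Nat.card (PJ cs hpE8.isCartan (TT chevE8 K) (XX chevE8 8 K) K8)) {x : ↥(chevE8.group K)}
    (hx : x ∈ LJ cs hpE8.isCartan (TT chevE8 K) (XX chevE8 8 K) J8) (hxp : orderOf x = p) :
    blk us us (mt x) ≠ 1 := by
  intro h1
  have R := rgd (K := K) hpE8 cs r
  have hG := GG_eq_top hpE8 K cs
  have : Finite (GL chevE8.Idx K) := inferInstance
  have h6 : ui 6 < chevE8.nroots := ui_lt (by norm_num)
  have hline : x ∈ lineStab chevE8 K (ui 6) := by
    refine ⟨1, one_ne_zero, ?_⟩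
    rw [one_smul]
    funext a
    rw [mulVec_ev _ h6]
    by_cases ha : ∃ c, a = us c
    · obtain ⟨c, rfl⟩ := ha
      have h2 := congrFun (congrFun h1 c) 6
      have h3 : mt x (us c) (Sum.inr ⟨ui 6, h6⟩) = blk us us (mt x) c 6 := rfl
      rw [h3, h2]
      have h4 := ev_ui (K := K) (c := 6) (ui_lt c.2)
      rw [show us c = Sum.inr ⟨ui c, ui_lt c.2⟩ from rfl, h4, Matrix.one_apply]
      congr 1
      exact propext ⟨fun e => by rw [e]; rfl, fun e => Fin.ext e⟩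
    · push Not at ha
      have h2 := (LJ_le_prStab cs hx).1 6 a ha
      rw [show (Sum.inr ⟨ui 6, h6⟩ : chevE8.Idx) = us 6 from rfl, h2]
      rcases a with j | v
      · rfl
      · rw [ev_inr, if_neg]
        intro e
        apply ha 6
        exact congrArg Sum.inr (Fin.ext e)
  obtain ⟨w, hw, b₁, hb₁, k, hk, b₂, hb₂, e⟩ := (mem_LJ R).1 hx
  have hkl : k ∈ lineStab chevE8 K (ui 6) := by
    have h2 : k = b₁⁻¹ * x * b₂⁻¹ := by rw [e]; group
    rw [h2]
    exact mul_mem (mul_mem (inv_mem (BJ_le_lineStab cs hb₁)) hline) (inv_mem (BJ_le_lineStab cs hb₂))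
  obtain ⟨s', hs', h2, hl⟩ := n_line hpE8 cs hk h6
  have h3 : s' = ui 6 := by
    obtain ⟨c, hc, e1⟩ := hl
    obtain ⟨d, hd, e2⟩ := mem_lineStab.1 hkl
    rw [e1] at e2
    by_contra hne
    have h4 := congrFun e2 (Sum.inr ⟨s', hs'⟩)
    rw [Pi.smul_apply, Pi.smul_apply, ev_inr, ev_inr, if_pos rfl, if_neg hne, smul_zero, smul_eq_mul, mul_one] at h4
    exact hc h4
  rw [h3] at h2
  have hwK := mem_K8 cs hw h2.symm
  apply hK
  rw [← hxp]
  refine Subgroup.orderOf_dvd_natCard _ ?_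
  rw [e]
  exact mul_mem (mul_mem (B_le_PJ (BJ_le_B _ hb₁)) (LJ_le_PJ (rp_mem_LJ R hwK hk))) (B_le_PJ (BJ_le_B _ hb₂))

end

section

variable {K : Type u} [Field K]

/-- `n₀` maps the natural module to the dual module. -/
theorem Pr_n0 {hN : NSys CoxeterMatrix.E₈ (TT chevE8 K)
    (fun i => (⟨nn hpE8 K i, nn_mem_group hpE8 i⟩ : ↥(chevE8.group K)))} {w0 : W} {n0 : ↥(chevE8.group K)}
    (hn0 : Rp cs hN w0 n0) (hw0 : ∀ z, rep cs hpE8.isCartan w0 z = -z) : Pr ns us (mt n0) := by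
  intro b r hr
  obtain ⟨s', hs', h2, c, -, e⟩ := n_line hpE8 cs hn0 (ui_lt b.2)
  have h3 : s' = ni b := by
    rw [hw0, ← vec_neg hpE8 (ui_lt b.2)] at h2
    have h4 := vec_inj hpE8 hs' (NPerm.neg_lt hpE8.inList (ui_lt b.2)) h2
    rw [h4, neg8 (by have := b.2; unfold ui; omega)]
    unfold ui ni
    omega
  have h4 : mt n0 r (us b) = (mt n0 *ᵥ ev chevE8 K (ui b)) r := (mulVec_ev _ (ui_lt b.2) r).symm
  rw [h4, e, h3, Pi.smul_apply, smul_eq_mul]
  have h5 : ev chevE8 K (ni b) r = 0 := by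
    rcases r with j | v
    · rfl
    · rw [ev_inr, if_neg]
      intro h6
      exact hr b (congrArg Sum.inr (Fin.ext h6))
  rw [h5, mul_zero]

theorem Pr_n0' {hN : NSys CoxeterMatrix.E₈ (TT chevE8 K)
    (fun i => (⟨nn hpE8 K i, nn_mem_group hpE8 i⟩ : ↥(chevE8.group K)))} {w0 : W} {n0 : ↥(chevE8.group K)}
    (hn0 : Rp cs hN w0 n0) (hw0 : ∀ z, rep cs hpE8.isCartan w0 z = -z) : Pr us ns (mt n0) := by
  intro b r hr
  obtain ⟨s', hs', h2, c, -, e⟩ := n_line hpE8 cs hn0 (ni_lt b)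
  have h3 : s' = ui b := by
    rw [hw0, ← vec_neg hpE8 (ni_lt b)] at h2
    have h4 := vec_inj hpE8 hs' (NPerm.neg_lt hpE8.inList (ni_lt b)) h2
    rw [h4, neg8 (by unfold ni; omega)]
    have := b.2
    unfold ui ni
    omega
  have h4 : mt n0 r (ns b) = (mt n0 *ᵥ ev chevE8 K (ni b)) r := (mulVec_ev _ (ni_lt b) r).symm
  rw [h4, e, h3, Pi.smul_apply, smul_eq_mul]
  have h5 : ev chevE8 K (ui b) r = 0 := by
    rcases r with j | v
    · rfl
    · rw [ev_inr, if_neg]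
      intro h6
      exact hr b (congrArg Sum.inr (Fin.ext h6))
  rw [h5, mul_zero]

/-- **The equation.** -/
theorem conj_eq {hN : NSys CoxeterMatrix.E₈ (TT chevE8 K)
    (fun i => (⟨nn hpE8 K i, nn_mem_group hpE8 i⟩ : ↥(chevE8.group K)))} {w0 : W} {n0 : ↥(chevE8.group K)}
    (hn0 : Rp cs hN w0 n0) (hw0 : ∀ z, rep cs hpE8.isCartan w0 z = -z) {x l : ↥(chevE8.group K)}
    (hx : x ∈ RGD.Sup (XX chevE8 8 K) (RootsJ cs hpE8.isCartan J8))
    (hl : l ∈ LJ cs hpE8.isCartan (TT chevE8 K) (XX chevE8 8 K) J8) (e : l * x * l⁻¹ = n0⁻¹ * x * n0) :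
    ∃ B C : Matrix (Fin 7) (Fin 7) K, blk us us (mt x) * C = 1 ∧ IsUnit B ∧
      B * blk us us (mt x) = C.transpose * B := by
  obtain ⟨hx1, hx2, hx3⟩ := natP_of_mem cs hx
  have hl1 := LJ_le_prStab cs hl
  refine ⟨blk ns us (mt n0) * blk us us (mt l), (blk ns ns (mt x))ᵀ, ?_, ?_, ?_⟩
  · have h1 := congrArg Matrix.transpose hx3
    rw [Matrix.transpose_mul, Matrix.transpose_transpose, Matrix.transpose_one] at h1
    exact mul_eq_one_comm.1 h1
  · refine IsUnit.mul ?_ ?_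
    · have h1 : blk us ns (mt n0⁻¹) * blk ns us (mt n0) = 1 := by
        rw [← blk_mul ns_inj (Pr_n0 cs hn0 hw0), ← mt_mul, inv_mul_cancel, mt_one, blk_one us_inj]
      exact IsUnit.of_mul_eq_one_right _ h1
    · have h1 : blk us us (mt l⁻¹) * blk us us (mt l) = 1 := by
        rw [← blk_mul us_inj hl1.1, ← mt_mul, inv_mul_cancel, mt_one, blk_one us_inj]
      exact IsUnit.of_mul_eq_one_right _ h1
  · rw [Matrix.transpose_transpose]
    have h1 : n0 * (l * x) = x * (n0 * l) := by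
      have h2 : l * x = n0⁻¹ * x * n0 * l := by rw [← e]; group
      rw [h2]
      group
    have h3 := congrArg (fun g => blk ns us (mt g)) h1
    simp only [mt_mul] at h3
    rw [blk_mul us_inj (hl1.1.mul hx1), blk_mul us_inj hx1,
      blk_mul ns_inj ((Pr_n0 cs hn0 hw0).mul hl1.1), blk_mul us_inj hl1.1, ← Matrix.mul_assoc] at h3
    exact h3

end

end Cfsg.Agent.H422.RatB
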