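import Cfsg.Agent.H422.RatB.Blk
import Cfsg.Agent.H422.RatB.Fix
import Cfsg.Agent.H422.RatB.Orb
import Cfsg.Agent.H422.RatB.Syl

/-!
# `E8` : the natural module of the Levi subgroup of type `A6` (helper422)

`J₀ = {2, …, 7}`; `σ_a`, `a < 7`, the roots `α_0`, `α_0 + α_2`, …, `α_0 + α_2 + ⋯ + α_7`; the root vectors of the `σ_a`
span the natural module `U` of `L_{J₀}` in the adjoint module, those of the `-σ_a` the dual module.
-/

set_option autoImplicit false
set_option linter.unusedSectionVars false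
set_option maxRecDepth 100000

namespace Cfsg.Agent.H422.RatB

open CoxeterSystem Cfsg.Agent.ChevalleyStructure.CoxeterGeom Cfsg.Agent.Tits.Roots Cfsg.Agent.Tits.Core
  Cfsg.Agent.Tits.RootComb Cfsg.Agent.Nodes.Reps Cfsg.Agent.Nodes.BNOf Cfsg.Agent.Nodes.Bruhat
  Cfsg.Agent.Nodes.LeviDec Cfsg.Agent.Nodes.RGDChev Cfsg.Agent.H35.ExcIdx
open Cfsg.Lie Cfsg.Agent.ChevalleyStructure Cfsg.Agent.ChevalleyStructure.Elts
  Cfsg.Agent.ChevalleyStructure.RootVecTab Cfsg.Agent.ChevalleyStructure.XColumns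
open scoped Matrix

universe u

/-! ### tables -/

theorem nroots8 : chevE8.nroots = 240 := by rfl

/-- the roots of `J₀` : the index of `σ_a - σ_b`, `a`, `b` -/
def tz : List (ℕ × ℕ × ℕ) := [(99, 0, 6), (100, 0, 5), (101, 0, 4), (102, 0, 3), (103, 0, 2), (104, 0, 1), (105, 1, 6),
  (106, 1, 5), (107, 1, 4), (108, 1, 3), (109, 1, 2), (110, 2, 6), (111, 2, 5), (112, 2, 4), (113, 2, 3), (114, 3, 6),
  (115, 3, 5), (116, 3, 4), (117, 4, 6), (118, 4, 5), (119, 5, 6), (120, 6, 5), (121, 5, 4), (122, 6, 4), (123, 4, 3),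
  (124, 5, 3), (125, 6, 3), (126, 3, 2), (127, 4, 2), (128, 5, 2), (129, 6, 2), (130, 2, 1), (131, 3, 1), (132, 4, 1),
  (133, 5, 1), (134, 6, 1), (135, 1, 0), (136, 2, 0), (137, 3, 0), (138, 4, 0), (139, 5, 0), (140, 6, 0)]

/-- the indices of the `σ_a` -/
def ui (a : ℕ) : ℕ := 162 + a

/-- the indices of the `-σ_a` -/
def ni (a : ℕ) : ℕ := 77 - a

theorem tz_ok : tz.all (fun e => decide (e.1 < 240) && decide (99 ≤ e.1) && decide (e.1 ≤ 140) &&
    decide (e.2.1 < 7) && decide (e.2.2 < 7) && decide (e.2.1 ≠ e.2.2) &&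
    (List.range 7).all (fun c => decide (chevE8.chainEntry e.1 (ui c) = if c = e.2.2 then [(ui e.2.1, 1)] else []) &&
      decide (chevE8.chainEntry e.1 (ni c) = if c = e.2.1 then [(ni e.2.2, -1)] else []))) = true := by
  decide +kernel

theorem tz_all : (List.range 240).all (fun r => (decide (RootVec.rt chevE8 r 0 ≠ 0)) || (decide (RootVec.rt chevE8 r 1 ≠ 0)) ||
    decide (r ∈ tz.map Prod.fst)) = true := by
  decide +kernel

theorem neg8 {r : ℕ} (hr : r < 240) : chevE8.neg r = 239 - r := by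
  rw [RootVec.neg_eq hpE8.checked (by rw [nroots8]; exact hr), nroots8]

theorem tz_fact {e : ℕ × ℕ × ℕ} (he : e ∈ tz) : (99 ≤ e.1 ∧ e.1 ≤ 140) ∧ e.2.1 < 7 ∧ e.2.2 < 7 ∧ e.2.1 ≠ e.2.2 ∧
    ∀ c < 7, chevE8.chainEntry e.1 (ui c) = (if c = e.2.2 then [(ui e.2.1, 1)] else []) ∧
      chevE8.chainEntry e.1 (ni c) = (if c = e.2.1 then [(ni e.2.2, -1)] else []) := by
  have h1 := List.all_eq_true.1 tz_ok e he
  simp only [Bool.and_eq_true, decide_eq_true_eq, List.all_eq_true, List.mem_range] at h1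
  obtain ⟨⟨⟨⟨⟨⟨-, h1⟩, h2⟩, h3⟩, h4⟩, h5⟩, h6⟩ := h1
  exact ⟨⟨h1, h2⟩, h3, h4, h5, h6⟩

theorem ev_ui {K : Type u} [Field K] {a c : ℕ} (ha : ui a < chevE8.nroots) :
    ev chevE8 K (ui c) (Sum.inr ⟨ui a, ha⟩) = if a = c then 1 else 0 := by
  rw [ev_inr]
  unfold ui
  simp

theorem ui_lt {a : ℕ} (ha : a < 7) : ui a < chevE8.nroots := by
  rw [nroots8]; unfold ui; omega

theorem ni_lt (a : ℕ) : ni a < chevE8.nroots := by
  rw [nroots8]; unfold ni; omega

/-- the coordinates of the `σ_a` -/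
def us (a : Fin 7) : chevE8.Idx := Sum.inr ⟨ui a, ui_lt a.2⟩

/-- the coordinates of the `-σ_a` -/
def ns (a : Fin 7) : chevE8.Idx := Sum.inr ⟨ni a, ni_lt a⟩

theorem us_inj : Function.Injective us := by
  intro a b e
  have h1 : ui a = ui b := congrArg Fin.val (Sum.inr.inj e)
  unfold ui at h1
  exact Fin.ext (by omega)

theorem ns_inj : Function.Injective ns := by
  intro a b e
  have h1 : ni a = ni b := congrArg Fin.val (Sum.inr.inj e)
  unfold ni at h1
  have := a.2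
  have := b.2
  exact Fin.ext (by omega)

section

variable {K : Type u} [Field K]

/-- a matrix with given columns -/
theorem Pr_of_cols {e : Fin 7 → chevE8.Idx} {i : ℕ → ℕ} (hi : ∀ a : Fin 7, i a < chevE8.nroots)
    (he : ∀ a : Fin 7, e a = Sum.inr ⟨i a, hi a⟩) {g : Matrix chevE8.Idx chevE8.Idx K} {c : Fin 7 → Fin 7 → K}
    (hg : ∀ b : Fin 7, g *ᵥ ev chevE8 K (i b) = ∑ a : Fin 7, c a b • ev chevE8 K (i a)) : Pr e e g := by
  intro b r hr
  rw [he b, ← mulVec_ev g (hi b), hg b, Finset.sum_apply]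
  refine Finset.sum_eq_zero fun a _ => ?_
  rw [Pi.smul_apply, smul_eq_mul]
  have h1 : ev chevE8 K (i a) r = 0 := by
    rcases r with j | v
    · rfl
    · rw [ev_inr, if_neg]
      intro h2
      apply hr a
      rw [he a]
      congr 1
      exact Fin.ext h2
  rw [h1, mul_zero]

theorem blk_of_cols {e : Fin 7 → chevE8.Idx} {i : ℕ → ℕ} (hi : ∀ a : Fin 7, i a < chevE8.nroots)
    (he : ∀ a : Fin 7, e a = Sum.inr ⟨i a, hi a⟩) (hinj : Function.Injective e) {g : Matrix chevE8.Idx chevE8.Idx K}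
    {c : Matrix (Fin 7) (Fin 7) K}
    (hg : ∀ b : Fin 7, g *ᵥ ev chevE8 K (i b) = ∑ a : Fin 7, c a b • ev chevE8 K (i a)) : blk e e g = c := by
  ext a b
  show g (e a) (e b) = _
  rw [he b, ← mulVec_ev g (hi b), hg b, Finset.sum_apply, Finset.sum_eq_single a]
  · rw [Pi.smul_apply, smul_eq_mul, he a, ev_inr, if_pos rfl, mul_one]
  · intro a' _ hne
    rw [Pi.smul_apply, smul_eq_mul, he a, ev_inr, if_neg, mul_zero]
    intro h1
    apply hne
    apply hinj
    rw [he a', he a]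
    congr 1
    exact Fin.ext h1.symm
  · intro h1
    exact absurd (Finset.mem_univ _) h1

/-- the root elements on the natural module -/
theorem x_us {e : ℕ × ℕ × ℕ} (he : e ∈ tz) (t : K) (c : Fin 7) :
    chevE8.x K e.1 t *ᵥ ev chevE8 K (ui c) =
      ∑ a : Fin 7, (1 + Matrix.single ⟨e.2.1, (tz_fact he).2.1⟩ ⟨e.2.2, (tz_fact he).2.2.1⟩ t :
        Matrix (Fin 7) (Fin 7) K) a c • ev chevE8 K (ui a) := by
  obtain ⟨⟨h1, h2⟩, h3, h4, h5, h6⟩ := tz_fact he
  have hr : e.1 < chevE8.nroots := by rw [nroots8]; omega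
  have hne : ui c ≠ e.1 := by unfold ui; omega
  have hnn : ui c ≠ chevE8.neg e.1 := by rw [neg8 (by omega)]; unfold ui; omega
  have h7 := (h6 c c.2).1
  simp only [Matrix.add_apply, add_smul, Finset.sum_add_distrib]
  have e1 : ∑ a : Fin 7, (1 : Matrix (Fin 7) (Fin 7) K) a c • ev chevE8 K (ui a) = ev chevE8 K (ui c) := by
    rw [Finset.sum_eq_single c]
    · rw [Matrix.one_apply_eq, one_smul]
    · intro a _ ha
      rw [Matrix.one_apply_ne ha, zero_smul]
    · intro h8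
      exact absurd (Finset.mem_univ _) h8
  rw [e1]
  by_cases hc : (c : ℕ) = e.2.2
  · rw [if_pos hc] at h7
    rw [x_one hpE8 hr (ui_lt c.2) hne hnn h7, Finset.sum_eq_single ⟨e.2.1, h3⟩]
    · have e2 : c = ⟨e.2.2, h4⟩ := Fin.ext hc
      rw [e2, Matrix.single_apply_same, Int.cast_one, one_mul]
    · intro a _ ha
      rw [Matrix.single_apply_of_row_ne (Ne.symm ha), zero_smul]
    · intro h8
      exact absurd (Finset.mem_univ _) h8
  · rw [if_neg hc] at h7
    rw [x_zero hpE8 hr (ui_lt c.2) hne hnn h7, Finset.sum_eq_zero, add_zero]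
    intro a _
    rw [Matrix.single_apply_of_col_ne _ _ (fun h8 => hc (by rw [← h8])), zero_smul]

/-- the root elements on the dual module -/
theorem x_ns {e : ℕ × ℕ × ℕ} (he : e ∈ tz) (t : K) (c : Fin 7) :
    chevE8.x K e.1 t *ᵥ ev chevE8 K (ni c) =
      ∑ a : Fin 7, (1 + Matrix.single ⟨e.2.2, (tz_fact he).2.2.1⟩ ⟨e.2.1, (tz_fact he).2.1⟩ (-t) :
        Matrix (Fin 7) (Fin 7) K) a c • ev chevE8 K (ni a) := by
  obtain ⟨⟨h1, h2⟩, h3, h4, h5, h6⟩ := tz_fact he
  have hr : e.1 < chevE8.nroots := by rw [nroots8]; omega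
  have hne : ni c ≠ e.1 := by unfold ni; omega
  have hnn : ni c ≠ chevE8.neg e.1 := by rw [neg8 (by omega)]; unfold ni; omega
  have h7 := (h6 c c.2).2
  simp only [Matrix.add_apply, add_smul, Finset.sum_add_distrib]
  have e1 : ∑ a : Fin 7, (1 : Matrix (Fin 7) (Fin 7) K) a c • ev chevE8 K (ni a) = ev chevE8 K (ni c) := by
    rw [Finset.sum_eq_single c]
    · rw [Matrix.one_apply_eq, one_smul]
    · intro a _ ha
      rw [Matrix.one_apply_ne ha, zero_smul]
    · intro h8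
      exact absurd (Finset.mem_univ _) h8
  rw [e1]
  by_cases hc : (c : ℕ) = e.2.1
  · rw [if_pos hc] at h7
    rw [x_one hpE8 hr (ni_lt c) hne hnn h7, Finset.sum_eq_single ⟨e.2.2, h4⟩]
    · have e2 : c = ⟨e.2.1, h3⟩ := Fin.ext hc
      rw [e2, Matrix.single_apply_same, Int.cast_neg, Int.cast_one, neg_one_mul]
    · intro a _ ha
      rw [Matrix.single_apply_of_row_ne (Ne.symm ha), zero_smul]
    · intro h8
      exact absurd (Finset.mem_univ _) h8
  · rw [if_neg hc] at h7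
    rw [x_zero hpE8 hr (ni_lt c) hne hnn h7, Finset.sum_eq_zero, add_zero]
    intro a _
    rw [Matrix.single_apply_of_col_ne _ _ (fun h8 => hc (by rw [← h8])), zero_smul]

end

end Cfsg.Agent.H422.RatB
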