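import Cfsg.Agent.H422.RatB.E8Mod
import Cfsg.Agent.H422.RatB.E7Root

/-!
# The root system of `E8` (helper422)

* `exists_neg_one` : `-1` is in the Weyl group (the power `15` of the Coxeter element);
* `st8` : the stabilizer in `W_J`, `J` of type `D7`, of the coefficient of the node `1`;
* `bound8` : the coefficient of the node `0` of a root is at most `2`.
-/

set_option autoImplicit false
set_option linter.unusedSectionVars false
set_option maxRecDepth 100000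

namespace Cfsg.Agent.H422.RatB

open CoxeterSystem Cfsg.Agent.ChevalleyStructure.CoxeterGeom Cfsg.Agent.Tits.Roots Cfsg.Agent.Tits.Core
  Cfsg.Agent.Tits.RootComb Cfsg.Agent.Tits.Exchange Cfsg.Agent.Nodes.Reps Cfsg.Agent.Nodes.BNOf
  Cfsg.Agent.Nodes.StabComb Cfsg.Agent.Nodes.Bruhat Cfsg.Agent.Nodes.LeviDec
  Cfsg.Agent.KFacts.RgdPar
  Cfsg.Agent.H35.ExcIdx Cfsg.Agent.ChevalleyStructure.CoxeterGeomTypes Cfsg.Lie
open Cfsg.Agent.Nodes.RGDChev Cfsg.Agent.ChevalleyStructure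

/-! ### `-1` -/

/-- the images of the simple roots under the powers of the Coxeter element -/
def ctab : List (List ℕ) := [[162, 141, 135, 130, 126, 123, 121, 120], [135, 164, 142, 126, 123, 121, 120, 66],
  [142, 148, 165, 123, 121, 120, 66, 103], [165, 175, 149, 121, 120, 66, 103, 96],
  [149, 189, 176, 120, 66, 103, 96, 73], [176, 208, 190, 66, 103, 96, 73, 89], [190, 195, 153, 103, 96, 73, 89, 62],
  [153, 211, 179, 96, 73, 89, 62, 102], [179, 197, 192, 73, 89, 62, 102, 95], [192, 212, 154, 89, 62, 102, 95, 72],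
  [154, 198, 180, 62, 102, 95, 72, 88], [180, 157, 138, 102, 95, 72, 88, 109], [138, 182, 145, 95, 72, 88, 109, 113],
  [145, 139, 168, 72, 88, 109, 113, 116], [168, 146, 77, 88, 109, 113, 116, 118],
  [77, 98, 104, 109, 113, 116, 118, 119]]

/-- an entry of the table -/
def cent (t i : ℕ) : ℕ := (ctab.getD t []).getD i 0

theorem ctab_ok : (List.range 15).all (fun t => (List.range 8).all (fun i => decide (cent t i < 240) &&
    decide ((List.range 8).foldr (fun j s => chevE8.reflectRoot j s) (cent t i) = cent (t + 1) i))) = true := by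
  decide +kernel

theorem ctab_ends : (List.range 8).all (fun i => decide (cent 0 i = chevE8.simple i) &&
    decide (cent 15 i = chevE8.neg (chevE8.simple i))) = true := by
  decide +kernel

variable {W : Type*} [Group W] (cs : CoxeterSystem CoxeterMatrix.E₈ W)

theorem rep_word_vec (ω : List (Fin 8)) {r : ℕ} (hr : r < chevE8.nroots) :
    (ω.map Fin.val).foldr (fun j s => chevE8.reflectRoot j s) r < chevE8.nroots ∧
    rep cs hpE8.isCartan (cs.wordProd ω) (vec chevE8 8 r) =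
      vec chevE8 8 ((ω.map Fin.val).foldr (fun j s => chevE8.reflectRoot j s) r) := by
  induction ω with
  | nil => exact ⟨hr, by rw [wordProd_nil, map_one]; rfl⟩
  | cons i ω ih =>
    obtain ⟨h1, h2⟩ := ih
    refine ⟨NPerm.reflectRoot_lt hpE8.inList (lt_rank hpE8 i) h1, ?_⟩
    rw [wordProd_cons, rep_mul_apply, h2, rep_vec hpE8 cs i h1]
    rfl

theorem exists_neg_one : ∃ w : W, ∀ z, rep cs hpE8.isCartan w z = -z := by
  set c := cs.wordProd (List.finRange 8) with hc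
  have h0 : (List.finRange 8).map Fin.val = List.range 8 := by decide
  have h1 : ∀ t ≤ 15, ∀ i : Fin 8, rep cs hpE8.isCartan (c ^ t) (sr i) = vec chevE8 8 (cent t i) := by
    intro t
    induction t with
    | zero =>
      intro _ i
      have h2 := List.all_eq_true.1 ctab_ends i (List.mem_range.2 i.2)
      rw [Bool.and_eq_true, decide_eq_true_eq, decide_eq_true_eq] at h2
      rw [pow_zero, map_one, h2.1, vec_simple hpE8]
      rfl
    | succ t ih =>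
      intro ht i
      have h2 := List.all_eq_true.1 (List.all_eq_true.1 ctab_ok t (List.mem_range.2 (by omega))) i
        (List.mem_range.2 i.2)
      rw [Bool.and_eq_true, decide_eq_true_eq, decide_eq_true_eq] at h2
      rw [pow_succ', rep_mul_apply, ih (by omega) i, hc,
        (rep_word_vec cs (List.finRange 8) (by rw [nroots8]; exact h2.1)).2, h0, h2.2]
  refine ⟨c ^ 15, ?_⟩
  have h3 : ∀ i : Fin 8, rep cs hpE8.isCartan (c ^ 15) (sr i) = -sr i := by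
    intro i
    have h2 := List.all_eq_true.1 ctab_ends i (List.mem_range.2 i.2)
    rw [Bool.and_eq_true, decide_eq_true_eq, decide_eq_true_eq] at h2
    rw [h1 15 le_rfl i, h2.2, vec_neg hpE8 (NPerm.simple_lt hpE8.inList (lt_rank hpE8 i)), vec_simple hpE8]
  intro z
  funext j
  let f : (Fin 8 → ℤ) →+ ℤ := (Pi.evalAddMonoidHom (fun _ : Fin 8 => ℤ) j).comp
    (rep cs hpE8.isCartan (c ^ 15)).toAddMonoidHom
  have h4 : f z = ∑ k, z k * f (sr k) := map_eq_sum f z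
  have h5 : ∀ k, f (sr k) = -(sr k : Fin 8 → ℤ) j := fun k => by
    show rep cs hpE8.isCartan (c ^ 15) (sr k) j = _
    rw [h3]
    rfl
  have h6 : (z : Fin 8 → ℤ) j = ∑ k, z k * (sr k : Fin 8 → ℤ) j :=
    map_eq_sum (Pi.evalAddMonoidHom (fun _ : Fin 8 => ℤ) j) z
  show f z = -(z j)
  rw [h4, h6, ← Finset.sum_neg_distrib]
  exact Finset.sum_congr rfl fun k _ => by rw [h5, mul_neg]

/-! ### the bound -/

theorem bound_tab : (List.range 240).all (fun r => decide (|RootVec.rt chevE8 r 0| ≤ 2)) = true := by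
  decide +kernel

theorem fnJ_D7 (z : Fin 8 → ℤ) : fnJ ({j | j ≠ 0} : Set (Fin 8)) z = z 0 := by
  classical
  have h1 := map_eq_sum (fnJ ({j | j ≠ 0} : Set (Fin 8))) z
  rw [h1, Finset.sum_eq_single 0]
  · rw [fnJ_sr_not (by simp), mul_one]
  · intro k _ hk
    rw [fnJ_sr_mem hk, mul_zero]
  · intro h
    exact absurd (Finset.mem_univ _) h

theorem bound8 {z : Fin 8 → ℤ} (hz : IsRoot cs hpE8.isCartan z) :
    |fnJ ({j | j ≠ 0} : Set (Fin 8)) z| ≤ ((2 : ℕ) : ℤ) := by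
  obtain ⟨r, hr, rfl⟩ := (isRoot_iff hpE8 cs z).1 hz
  have h1 := List.all_eq_true.1 bound_tab r (List.mem_range.2 (by rw [nroots8] at hr; exact hr))
  rw [decide_eq_true_eq] at h1
  rw [fnJ_D7]
  exact h1

/-! ### the orbit of the coefficient of the node `1` -/

/-- the orbit -/
def otab : List (List ℤ) :=
  [[0, 1, 0, 0, 0, 0, 0, 0], [0, -1, 0, 1, 0, 0, 0, 0], [0, 0, 1, -1, 1, 0, 0, 0], [1, 0, -1, 0, 1, 0, 0, 0], [0, 0,
  1, 0, -1, 1, 0, 0], [1, 0, -1, 1, -1, 1, 0, 0], [0, 0, 1, 0, 0, -1, 1, 0], [1, 1, 0, -1, 0, 1, 0, 0], [1, 0, -1, 1,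
  0, -1, 1, 0], [0, 0, 1, 0, 0, 0, -1, 1], [1, -1, 0, 0, 0, 1, 0, 0], [1, 1, 0, -1, 1, -1, 1, 0], [1, 0, -1, 1, 0, 0,
  -1, 1], [0, 0, 1, 0, 0, 0, 0, -1], [1, -1, 0, 0, 1, -1, 1, 0], [1, 1, 0, 0, -1, 0, 1, 0], [1, 1, 0, -1, 1, 0, -1,
  1], [1, 0, -1, 1, 0, 0, 0, -1], [1, -1, 0, 1, -1, 0, 1, 0], [1, -1, 0, 0, 1, 0, -1, 1], [1, 1, 0, 0, -1, 1, -1, 1],
  [1, 1, 0, -1, 1, 0, 0, -1], [1, 0, 1, -1, 0, 0, 1, 0], [1, -1, 0, 1, -1, 1, -1, 1], [1, -1, 0, 0, 1, 0, 0, -1], [1,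
  1, 0, 0, 0, -1, 0, 1], [1, 1, 0, 0, -1, 1, 0, -1], [2, 0, -1, 0, 0, 0, 1, 0], [1, 0, 1, -1, 0, 1, -1, 1], [1, -1, 0,
  1, 0, -1, 0, 1], [1, -1, 0, 1, -1, 1, 0, -1], [1, 1, 0, 0, 0, -1, 1, -1], [2, 0, -1, 0, 0, 1, -1, 1], [1, 0, 1, -1,
  1, -1, 0, 1], [1, 0, 1, -1, 0, 1, 0, -1], [1, -1, 0, 1, 0, -1, 1, -1], [1, 1, 0, 0, 0, 0, -1, 0], [2, 0, -1, 0, 1,
  -1, 0, 1], [2, 0, -1, 0, 0, 1, 0, -1], [1, 0, 1, 0, -1, 0, 0, 1], [1, 0, 1, -1, 1, -1, 1, -1], [1, -1, 0, 1, 0, 0,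
  -1, 0], [2, 0, -1, 1, -1, 0, 0, 1], [2, 0, -1, 0, 1, -1, 1, -1], [1, 0, 1, 0, -1, 0, 1, -1], [1, 0, 1, -1, 1, 0, -1,
  0], [2, 1, 0, -1, 0, 0, 0, 1], [2, 0, -1, 1, -1, 0, 1, -1], [2, 0, -1, 0, 1, 0, -1, 0], [1, 0, 1, 0, -1, 1, -1, 0],
  [2, -1, 0, 0, 0, 0, 0, 1], [2, 1, 0, -1, 0, 0, 1, -1], [2, 0, -1, 1, -1, 1, -1, 0], [1, 0, 1, 0, 0, -1, 0, 0], [2,
  -1, 0, 0, 0, 0, 1, -1], [2, 1, 0, -1, 0, 1, -1, 0], [2, 0, -1, 1, 0, -1, 0, 0], [2, -1, 0, 0, 0, 1, -1, 0], [2, 1,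
  0, -1, 1, -1, 0, 0], [2, -1, 0, 0, 1, -1, 0, 0], [2, 1, 0, 0, -1, 0, 0, 0], [2, -1, 0, 1, -1, 0, 0, 0], [2, 0, 1,
  -1, 0, 0, 0, 0], [3, 0, -1, 0, 0, 0, 0, 0]]

/-- the reflection -/
def stepL (j : ℕ) (L : List ℤ) : List ℤ :=
  (List.range 8).map fun i => L.getD i 0 - ((chevE8.cartan j (chevE8.simple i)) * L.getD j 0)

theorem otab_step : otab.all (fun L => (List.range 8).all (fun j => decide (j = 0) || decide (stepL j L ∈ otab))) =
    true := by
  decide +kernel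

theorem otab_zero : otab.all (fun L => !((List.range 8).all (fun i => decide (i < 2) || decide (L.getD i 0 = 0))) ||
    (decide (L.getD 0 0 = 0) && decide (L.getD 1 0 = 1))) = true := by
  decide +kernel

theorem otab_start : [0, 1, 0, 0, 0, 0, 0, 0] ∈ otab := by
  decide +kernel

theorem stepL_getD {j : ℕ} {L : List ℤ} {i : ℕ} (hi : i < 8) :
    (stepL j L).getD i 0 = L.getD i 0 - ((chevE8.cartan j (chevE8.simple i)) * L.getD j 0) := by
  unfold stepL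
  rw [List.getD_eq_getElem?_getD, List.getElem?_map, List.getElem?_range hi]
  rfl

theorem orbit_mem {w : W} (hw : w ∈ WJ cs ({j | j ≠ 0} : Set (Fin 8))) :
    ∃ L ∈ otab, ∀ i : Fin 8, rep cs hpE8.isCartan w⁻¹ (sr i) 1 = L.getD i 0 := by
  obtain ⟨ω, hω, rfl⟩ := exists_word_of_mem_WJ cs hw
  clear hw
  induction ω with
  | nil =>
    refine ⟨_, otab_start, fun i => ?_⟩
    rw [wordProd_nil, inv_one, map_one]
    show (sr i : Fin 8 → ℤ) 1 = _
    by_cases hi : i = 1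
    · subst hi; rw [sr_self]; rfl
    · rw [sr_ne (Ne.symm hi)]
      revert i
      decide
  | cons j ω ih =>
    obtain ⟨L, hL, h1⟩ := ih fun i hi => hω i (List.mem_cons_of_mem _ hi)
    have hj : (j : ℕ) ≠ 0 := fun h => hω j List.mem_cons_self (Fin.ext h)
    refine ⟨stepL j L, ?_, fun i => ?_⟩
    · have h2 := List.all_eq_true.1 (List.all_eq_true.1 otab_step L hL) j (List.mem_range.2 j.2)
      rw [Bool.or_eq_true, decide_eq_true_eq, decide_eq_true_eq] at h2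
      exact h2.resolve_left hj
    · rw [wordProd_cons, mul_inv_rev, cs.inv_simple, rep_mul_apply, rep_simple_eq, map_sub, map_zsmul, Pi.sub_apply,
        Pi.smul_apply, smul_eq_mul, h1, h1, stepL_getD i.2, sr, pairing_single, mul_one, cartanOf_def]

/-- **The stabilizer.** -/
theorem st8 [Finite W] {w : W} (hw : w ∈ WJ cs ({j | j ≠ 0} : Set (Fin 8)))
    (h : ∀ i ∈ J8, fnJ J8 (rep cs hpE8.isCartan w⁻¹ (sr i)) = 0) : w ∈ WJ cs J8 := by
  classical
  have hf : ∀ z : Fin 8 → ℤ, fnJ J8 z = z 0 + z 1 := by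
    intro z
    have h1 := map_eq_sum (fnJ J8) z
    rw [h1, Finset.sum_eq_add_of_mem 0 1 (Finset.mem_univ _) (Finset.mem_univ _) (by decide)]
    · rw [fnJ_sr_not (fun h => h.1 rfl), fnJ_sr_not (fun h => h.2 rfl), mul_one, mul_one]
    · intro k _ hk
      rw [fnJ_sr_mem (show k ∈ J8 from ⟨hk.1, hk.2⟩), mul_zero]
  have h0 : ∀ z : Fin 8 → ℤ, rep cs hpE8.isCartan w⁻¹ z 0 = z 0 := fun z =>
    rep_apply_of_mem (cs := cs) (h := hpE8.isCartan) (inv_mem hw) z (by simp)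
  obtain ⟨L, hL, h1⟩ := orbit_mem cs hw
  have h2 : ∀ i : Fin 8, i ∈ J8 → L.getD i 0 = 0 := by
    intro i hi
    have h3 := h i hi
    rw [hf, h0, h1, sr_ne (Ne.symm hi.1), zero_add] at h3
    exact h3
  have h3 := List.all_eq_true.1 otab_zero L hL
  rw [Bool.or_eq_true, Bool.not_eq_true', Bool.and_eq_true, decide_eq_true_eq, decide_eq_true_eq] at h3
  have h4 : L.getD 0 0 = 0 ∧ L.getD 1 0 = 1 := by
    refine h3.resolve_left fun h5 => ?_
    rw [Bool.eq_false_iff] at h5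
    apply h5
    rw [List.all_eq_true]
    intro i hi
    rw [List.mem_range] at hi
    rw [Bool.or_eq_true, decide_eq_true_eq, decide_eq_true_eq]
    by_cases hi2 : i < 2
    · exact Or.inl hi2
    · right
      exact h2 ⟨i, hi⟩ ⟨fun e => hi2 (by rw [Fin.ext_iff] at e; simp at e; omega),
        fun e => hi2 (by rw [Fin.ext_iff] at e; simp at e; omega)⟩
  have h5 : ∀ z : Fin 8 → ℤ, rep cs hpE8.isCartan w⁻¹ z 1 = z 1 := by
    intro z
    let f : (Fin 8 → ℤ) →+ ℤ := (Pi.evalAddMonoidHom (fun _ : Fin 8 => ℤ) 1).comp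
      (rep cs hpE8.isCartan w⁻¹).toAddMonoidHom
    have h6 : f z = ∑ k, z k * f (sr k) := map_eq_sum f z
    have h7 : ∀ k, f (sr k) = L.getD k 0 := h1
    show f z = z 1
    rw [h6, Finset.sum_eq_single 1]
    · rw [h7]
      have h8 : L.getD ((1 : Fin 8) : ℕ) 0 = 1 := h4.2
      rw [h8, mul_one]
    · intro k _ hk
      rw [h7]
      by_cases hk0 : k = 0
      · subst hk0
        have h8 : L.getD ((0 : Fin 8) : ℕ) 0 = 0 := h4.1
        rw [h8, mul_zero]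
      · rw [h2 k ⟨hk0, hk⟩, mul_zero]
    · intro h
      exact absurd (Finset.mem_univ _) h
  have hinv : ∀ z : Fin 8 → ℤ, fnJ J8 (rep cs hpE8.isCartan w⁻¹ z) = fnJ J8 z := by
    intro z
    rw [hf, hf, h0, h5]
  have hinv' : ∀ z : Fin 8 → ℤ, fnJ J8 (rep cs hpE8.isCartan w z) = fnJ J8 z := by
    intro z
    rw [← hinv, rep_inv_apply]
  refine WJ_mono cs ?_ (mem_WJ_of_half (cs := cs) (h := hpE8.isCartan) (fnJ J8) (fun i _ => fnJ_nonneg J8 i) hw
    (fun x _ hx => by rw [hinv']; exact hx) (fun x _ hx => by rw [hinv]; exact hx))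
  rintro i ⟨-, hi⟩
  have h6 : i ∈ {i | fnJ J8 (sr i) = 0} := hi
  rwa [fnJ_zero] at h6

end Cfsg.Agent.H422.RatB
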